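import Mathlib

/-!
A group generated by a class of involutions with all products of `p`-power order (`p` odd) has
nilpotent derived subgroup, given Glauberman's Z*-property for the group.
-/

set_option autoImplicit false

namespace Cfsg.Agent.Fischer

open Subgroup

variable {G : Type*} [Group G]

theorem commutator_le_of_coset {D : Set G} (hgen : Subgroup.closure D = ⊤) (K : Subgroup G)
    [K.Normal] {x : G} (h : ∀ y ∈ D, y * x⁻¹ ∈ K) : commutator G ≤ K := by
  have hall : ∀ g : G, (g : G ⧸ K) ∈ zpowers (x : G ⧸ K) := by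
    intro g
    have hg : g ∈ Subgroup.closure D := hgen ▸ mem_top g
    have hle : Subgroup.closure D ≤ (zpowers (x : G ⧸ K)).comap (QuotientGroup.mk' K) := by
      rw [Subgroup.closure_le]
      intro y hy
      show (y : G ⧸ K) ∈ zpowers (x : G ⧸ K)
      have h2 : ((y * x⁻¹ : G) : G ⧸ K) = 1 := (QuotientGroup.eq_one_iff _).2 (h y hy)
      rw [QuotientGroup.mk_mul, QuotientGroup.mk_inv, mul_inv_eq_one] at h2
      rw [h2]
      exact mem_zpowers _
    exact hle hg
  have hcomm : ∀ a b : G ⧸ K, a * b = b * a := by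
    intro a b
    induction a using QuotientGroup.induction_on with
    | H a => induction b using QuotientGroup.induction_on with
      | H b =>
        obtain ⟨i, hi⟩ := hall a
        obtain ⟨j, hj⟩ := hall b
        simp only at hi hj
        rw [← hi, ← hj]
        exact (Commute.zpow_zpow (Commute.refl _) i j).eq
  rw [commutator_def, Subgroup.commutator_le]
  intro a _ b _
  rw [← QuotientGroup.eq_one_iff]
  show ((a * b * a⁻¹ * b⁻¹ : G) : G ⧸ K) = 1
  simp only [QuotientGroup.mk_mul, QuotientGroup.mk_inv]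
  rw [hcomm (a : G ⧸ K) (b : G ⧸ K)]
  group

theorem eq_one_of_two_primes {z : G} {p q k i : ℕ} (hp : p.Prime) (hq : q.Prime) (hpq : p ≠ q)
    (h1 : orderOf z = p ^ k) (h2 : orderOf z ∣ q ^ i) : z = 1 := by
  rw [← orderOf_eq_one_iff]
  exact Nat.eq_one_of_dvd_coprimes (((Nat.coprime_primes hp hq).2 hpq).pow k i) (h1 ▸ dvd_rfl) h2

theorem derived_nilpotent [Finite G]
    (hZ : ∀ (P : Sylow 2 G) (u : G), orderOf u = 2 → u ∈ P →
      (∀ g : G, g * u * g⁻¹ ∈ P → g * u * g⁻¹ = u) →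
      ∃ N : Subgroup G, N.Normal ∧ Odd (Nat.card N) ∧ ∀ g : G, (u * g * u⁻¹ * g⁻¹) ∈ N)
    (p : ℕ) (hp : p.Prime) (hodd : p ≠ 2) {D : Set G} (hinv : ∀ d ∈ D, orderOf d = 2)
    (hconj : ∃ d ∈ D, D = conjugatesOf d) (hgen : Subgroup.closure D = ⊤)
    (hprod : ∀ x ∈ D, ∀ y ∈ D, x ≠ y → ∃ k : ℕ, orderOf (x * y) = p ^ k) :
    Group.IsNilpotent ↥(commutator G) := by
  haveI : Fact (Nat.Prime 2) := ⟨Nat.prime_two⟩
  haveI : Fact p.Prime := ⟨hp⟩
  obtain ⟨x, hxD, hD⟩ := hconj
  have hx2 := hinv x hxD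
  have hxx : x * x = 1 := by rw [← pow_two, ← hx2, pow_orderOf_eq_one]
  have hxinv : x⁻¹ = x := inv_eq_of_mul_eq_one_right hxx
  have hcD : ∀ g : G, g * x * g⁻¹ ∈ D := fun g => by
    rw [hD]; exact isConj_iff.2 ⟨g, rfl⟩
  have key : ∀ g : G, ∀ q i : ℕ, q.Prime → p ≠ q → orderOf (x * (g * x * g⁻¹)) ∣ q ^ i →
      g * x * g⁻¹ = x := by
    intro g q i hq hpq hdvd
    by_contra hne
    obtain ⟨k, hk⟩ := hprod x hxD _ (hcD g) (fun e => hne e.symm)
    have h1 := eq_one_of_two_primes hp hq hpq hk hdvd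
    exact hne ((eq_inv_of_mul_eq_one_right h1).trans hxinv)
  obtain ⟨P, hP⟩ := (IsPGroup.of_card (p := 2) (G := zpowers x) (n := 1)
    (by rw [Nat.card_zpowers, hx2, pow_one])).exists_le_sylow
  have hxP : x ∈ P := hP (mem_zpowers x)
  obtain ⟨N, hNn, hNodd, hN⟩ := hZ P x hx2 hxP (fun g hg => by
    obtain ⟨i, hi⟩ := P.2 ⟨x * (g * x * g⁻¹), mul_mem hxP hg⟩
    refine key g 2 i Nat.prime_two hodd (orderOf_dvd_of_pow_eq_one ?_)
    exact congrArg Subtype.val hi)
  haveI := hNn
  have hcomN : ∀ y ∈ D, y * x⁻¹ ∈ N := by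
    intro y hy
    rw [hD] at hy
    obtain ⟨g, rfl⟩ := isConj_iff.1 hy
    have := inv_mem (hN g)
    simpa [mul_assoc] using this
  -- the action of x on N
  let σ : MulAut N := MulAut.conjNormal x
  have hσ : ∀ n : N, ((σ n : N) : G) = x * n * x⁻¹ := fun n => MulAut.conjNormal_apply x n
  let C : Subgroup N := (Subgroup.centralizer {x}).comap N.subtype
  -- x-invariant Sylow subgroups
  have hinvSylow : ∀ q : ℕ, q.Prime → ∃ Q : Sylow q N, σ • Q = Q := by
    intro q hq
    haveI : Fact q.Prime := ⟨hq⟩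
    classical
    haveI := Fintype.ofFinite (Sylow q N)
    have hdvd : Nat.card (Sylow q N) ∣ Nat.card N := by
      obtain ⟨Q⟩ : Nonempty (Sylow q N) := inferInstance
      exact (Sylow.card_dvd_index Q).trans (Subgroup.index_dvd_card _)
    have hodd' : ¬ 2 ∣ Fintype.card (Sylow q N) := by
      rw [← Nat.card_eq_fintype_card]
      exact fun h2 => (Nat.not_even_iff_odd.2 hNodd) (even_iff_two_dvd.2 (h2.trans hdvd))
    let e : Equiv.Perm (Sylow q N) := MulAction.toPerm σ
    have he : e ^ 2 ^ 1 = 1 := by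
      ext1 Q
      show σ • σ • Q = Q
      rw [← mul_smul]
      have : σ * σ = 1 := by
        rw [← map_mul, hxx, map_one]
      rw [this, one_smul]
    obtain ⟨Q, hQ⟩ := Equiv.Perm.exists_fixed_point_of_prime (p := 2) hodd' he
    exact ⟨Q, hQ⟩
  have hinvmem : ∀ {q : ℕ} {Q : Sylow q N}, σ • Q = Q → ∀ t : N, t ∈ Q → σ t ∈ Q := by
    intro q Q hQ t ht
    rw [← hQ]
    exact Subgroup.smul_mem_pointwise_smul t σ Q.toSubgroup ht
  -- for q ≠ p an invariant Sylow q-subgroup is centralised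
  have hcent : ∀ q : ℕ, q.Prime → q ≠ p → ¬ q ∣ C.index := by
    intro q hq hqp
    haveI : Fact q.Prime := ⟨hq⟩
    obtain ⟨Q, hQ⟩ := hinvSylow q hq
    have hle : (Q : Subgroup N) ≤ C := by
      intro t ht
      show (t : G) ∈ Subgroup.centralizer {x}
      rw [Subgroup.mem_centralizer_singleton_iff]
      obtain ⟨i, hi⟩ := Q.2 ⟨σ t * t⁻¹, mul_mem (hinvmem hQ t ht) (inv_mem ht)⟩
      have hval : ((σ t * t⁻¹ : N) : G) = x * ((t : G) * x * (t : G)⁻¹) := by
        rw [Subgroup.coe_mul, Subgroup.coe_inv, hσ, hxinv]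
        simp only [mul_assoc]
      have := key t q i hq (fun h => hqp h.symm) (by
        rw [← hval]
        refine orderOf_dvd_of_pow_eq_one ?_
        exact congrArg (fun z : (Q : Subgroup N) => ((z : N) : G)) hi)
      calc (t : G) * x = (t : G) * x * (t : G)⁻¹ * t := by group
        _ = x * t := by rw [this]
    intro hdvd
    exact Q.not_dvd_index (hdvd.trans (Subgroup.index_dvd_of_le hle))
  obtain ⟨R, hR⟩ := hinvSylow p hp
  have hcop : Nat.Coprime C.index (R : Subgroup N).index := by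
    rw [Nat.coprime_iff_gcd_eq_one]
    by_contra hne
    obtain ⟨q, hq, hqd⟩ := Nat.exists_prime_and_dvd hne
    by_cases hqp : q = p
    · subst hqp
      exact R.not_dvd_index (hqd.trans (Nat.gcd_dvd_right _ _))
    · exact hcent q hq hqp (hqd.trans (Nat.gcd_dvd_left _ _))
  -- hence N = R C
  have hRC : ∀ n : N, ∃ r ∈ (R : Subgroup N), r⁻¹ * n ∈ C := by
    have hst : MulAction.stabilizer (R : Subgroup N) ((1 : N) : N ⧸ C) =
        C.subgroupOf (R : Subgroup N) := by
      ext r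
      rw [MulAction.mem_stabilizer_iff, Subgroup.mem_subgroupOf]
      show (((r : N) * 1 : N) : N ⧸ C) = ((1 : N) : N ⧸ C) ↔ _
      rw [QuotientGroup.eq]
      simp
    have h1 : (MulAction.orbit (R : Subgroup N) ((1 : N) : N ⧸ C)).ncard = C.relIndex R := by
      rw [← MulAction.index_stabilizer, hst]
      rfl
    have h2 : C.index ∣ C.relIndex R := by
      have h3 : C.index ∣ (C ⊓ (R : Subgroup N)).index := Subgroup.index_dvd_of_le inf_le_left
      rw [← Subgroup.relIndex_mul_index (inf_le_right : C ⊓ (R : Subgroup N) ≤ R),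
        Subgroup.inf_relIndex_right] at h3
      exact hcop.dvd_of_dvd_mul_right h3
    have hpos : C.relIndex R ≠ 0 := Subgroup.index_ne_zero_of_finite
    have huniv : MulAction.orbit (R : Subgroup N) ((1 : N) : N ⧸ C) = Set.univ := by
      refine Set.eq_of_subset_of_ncard_le (Set.subset_univ _) ?_ (Set.toFinite _)
      rw [Set.ncard_univ, h1]
      exact Nat.le_of_dvd (Nat.pos_of_ne_zero hpos) h2
    intro n
    obtain ⟨r, hr⟩ : (n : N ⧸ C) ∈ MulAction.orbit (R : Subgroup N) ((1 : N) : N ⧸ C) :=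
      huniv ▸ Set.mem_univ _
    refine ⟨r, r.2, ?_⟩
    have hr' : (((r : N) * 1 : N) : N ⧸ C) = n := hr
    rw [QuotientGroup.eq] at hr'
    simpa using hr'
  let K : Subgroup G := (R : Subgroup N).map N.subtype
  have hxK : ∀ k ∈ K, x * k * x⁻¹ ∈ K := by
    rintro _ ⟨t, ht, rfl⟩
    exact ⟨σ t, hinvmem hR t ht, hσ t⟩
  have hDK : ∀ y ∈ D, ∃ r ∈ K, y = r * x * r⁻¹ := by
    intro y hy
    rw [hD] at hy
    obtain ⟨g, rfl⟩ := isConj_iff.1 hy
    -- g x g⁻¹ = (n x n⁻¹) for some n in N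
    have hgN : ∀ g : G, ∃ n ∈ N, g * x * g⁻¹ = n * x * n⁻¹ := by
      intro g
      have hg : g ∈ Subgroup.closure D := hgen ▸ mem_top g
      induction hg using Subgroup.closure_induction_left with
      | one => exact ⟨1, one_mem _, by simp⟩
      | mul_left y hy z _ ih =>
        obtain ⟨n, hn, e⟩ := ih
        refine ⟨y * x⁻¹ * (x * n * x⁻¹), mul_mem (hcomN y hy) (hNn.conj_mem n hn x), ?_⟩
        calc y * z * x * (y * z)⁻¹ = y * (z * x * z⁻¹) * y⁻¹ := by group
          _ = y * (n * x * n⁻¹) * y⁻¹ := by rw [e]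
          _ = _ := by group
      | inv_mul_cancel y hy z _ ih =>
        obtain ⟨n, hn, e⟩ := ih
        have hy2 : y⁻¹ = y := inv_eq_of_mul_eq_one_right (by
          rw [← pow_two, ← hinv y hy, pow_orderOf_eq_one])
        refine ⟨y * x⁻¹ * (x * n * x⁻¹), mul_mem (hcomN y hy) (hNn.conj_mem n hn x), ?_⟩
        rw [hy2]
        calc y * z * x * (y * z)⁻¹ = y * (z * x * z⁻¹) * y⁻¹ := by group
          _ = y * (n * x * n⁻¹) * y⁻¹ := by rw [e]
          _ = _ := by group
    obtain ⟨n, hn, e⟩ := hgN g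
    obtain ⟨r, hr, hc⟩ := hRC ⟨n, hn⟩
    refine ⟨(r : G), ⟨r, hr, rfl⟩, ?_⟩
    have hc' : ((r : G)⁻¹ * n) * x = x * ((r : G)⁻¹ * n) := by
      have := Subgroup.mem_centralizer_singleton_iff.1
        (show ((r⁻¹ * ⟨n, hn⟩ : N) : G) ∈ Subgroup.centralizer {x} from hc)
      simpa using this
    rw [e]
    calc n * x * n⁻¹ = (r : G) * (((r : G)⁻¹ * n) * x) * n⁻¹ := by group
      _ = (r : G) * (x * ((r : G)⁻¹ * n)) * n⁻¹ := by rw [hc']
      _ = (r : G) * x * (r : G)⁻¹ := by group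
  have hKn : K.Normal := by
    rw [← Subgroup.normalizer_eq_top_iff, eq_top_iff, ← hgen, Subgroup.closure_le]
    intro y hy
    obtain ⟨r, hr, rfl⟩ := hDK y hy
    refine mul_mem (mul_mem (Subgroup.le_normalizer hr) ?_) (inv_mem (Subgroup.le_normalizer hr))
    rw [Subgroup.mem_normalizer_iff]
    intro k
    refine ⟨hxK k, fun h => ?_⟩
    have := hxK _ h
    simpa [hxinv, mul_assoc, hxx, ← mul_assoc x x] using this
  have hle : commutator G ≤ K := commutator_le_of_coset hgen K (x := x) (by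
    intro y hy
    obtain ⟨r, hr, rfl⟩ := hDK y hy
    have : r * x * r⁻¹ * x⁻¹ = r * (x * r⁻¹ * x⁻¹) := by group
    rw [this]
    exact mul_mem hr (hxK _ (inv_mem hr)))
  have hKp : IsPGroup p K := R.2.map _
  exact (hKp.to_le hle).isNilpotent

end Cfsg.Agent.Fischer
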